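import Cfsg.Agent.H889.Mono.FiveLam
import Cfsg.Agent.H418.Mono.A4X

/-!
# S2187, M9 (`p = 5`, `E₈`): `lam5` (helper889)
-/

set_option autoImplicit false
set_option linter.unusedSectionVars false

namespace Cfsg.Agent.H889.Mono.Five

open CoxeterSystem Cfsg Cfsg.Lie Cfsg.Lie.ChevalleyDatum
open Cfsg.Agent.ChevalleyStructure Cfsg.Agent.ChevalleyStructure.Elts Cfsg.Agent.ChevalleyStructure.CoxeterGeom
  Cfsg.Agent.ChevalleyStructure.CoxeterGeomTypes Cfsg.Agent.ChevalleyStructure.NPerm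
open Cfsg.Agent.Tits.Roots Cfsg.Agent.Tits.Core Cfsg.Agent.Nodes Cfsg.Agent.Nodes.Reps Cfsg.Agent.Nodes.BNOf
  Cfsg.Agent.Nodes.SubComb Cfsg.Agent.Nodes.RGDChev Cfsg.Agent.Nodes.Bruhat Cfsg.Agent.Nodes.Coroot
open Cfsg.Agent.H225.Gen (LL LL_rep LL_root LL_neg LL_refl hi_E8)
open Cfsg.Agent.H418.Mono

variable {M : CoxeterMatrix (Fin 8)} (hp : IsType chevE8 8 M)

/-- **`lam5`** (S2187, M9) -/
theorem lam5 : ∀ w : M.Group, w ^ 5 = 1 → ∀ b ∈ LL M.toCoxeterSystem hp,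
    cpr M.toCoxeterSystem hp.isCartan (rep M.toCoxeterSystem hp.isCartan w b) b = 1 →
    ∃ b' ∈ LL M.toCoxeterSystem hp,
      cpr M.toCoxeterSystem hp.isCartan (rep M.toCoxeterSystem hp.isCartan w b') b' = 1 ∧
      cpr M.toCoxeterSystem hp.isCartan (rep M.toCoxeterSystem hp.isCartan (w ^ 2) b') b' = 1 := by
  intro w hw b hb h1
  have := finite_W hp M.toCoxeterSystem
  have hbr := LL_root hi_E8 hp M.toCoxeterSystem hb
  rcases lam_root M.toCoxeterSystem hp.isCartan (by simp) hw hbr h1 with h2 | ⟨r, hrv, hr, hg, hx⟩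
  · exact ⟨b, hb, h1, h2⟩
  · have hwb : rep M.toCoxeterSystem hp.isCartan w b ∈ LL M.toCoxeterSystem hp := LL_rep hp _ hb w
    have hc : b - rep M.toCoxeterSystem hp.isCartan w b ∈ LL M.toCoxeterSystem hp := by
      have h3 := LL_refl hp M.toCoxeterSystem hb (LL_root hi_E8 hp _ hwb)
      have h4 : cpr M.toCoxeterSystem hp.isCartan b (rep M.toCoxeterSystem hp.isCartan w b) = 1 := by
        have := Fintype.ofFinite M.Group
        have e1 := two_form_cpr M.toCoxeterSystem hp.isCartan (rep M.toCoxeterSystem hp.isCartan w b) hbr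
        apply cpr_eq_of_form M.toCoxeterSystem hp.isCartan (LL_root hi_E8 hp _ hwb)
        rw [form_rep, form_comm, e1, h1]
      rwa [h4, one_smul] at h3
    have hrL : ∀ i, r i ∈ LL M.toCoxeterSystem hp := by
      intro i
      obtain ⟨v, hv⟩ := hrv i
      rw [hv]
      exact LL_rep hp _ hc v
    obtain ⟨x, hxL, x0, x2, x4, x1⟩ := a4x (hrL 0) (hrL 2) (hrL 4) (hrL 1) (by rw [hg]; decide) (by rw [hg]; decide)
      (by rw [hg]; decide) (by rw [hg]; decide) (by rw [hg]; decide) (by rw [hg]; decide)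
    refine ⟨x, hxL, hx x (LL_root hi_E8 hp _ hxL) x0 x2 x4 x1 ?_⟩
    obtain ⟨v, rfl⟩ := hb
    obtain ⟨u, rfl⟩ := hxL
    exact ⟨u * v⁻¹, by rw [rep_mul_apply, rep_inv_apply]⟩

end Cfsg.Agent.H889.Mono.Five
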